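import Cfsg.Agent.H678.CCData
import Cfsg.Agent.H65.Ore.Prd

/-!
# A CC-subgroup with `|N(A) : A| = 4`: four nonexceptional characters, products of two classes (S2452; helper458)

`A` a CC-subgroup of `G`, `|A| = 4 s + 1`, `|N(A) : A| = 4`, `s ≥ 7`; `st`, `φ` irreducible characters with
`st(1) ≡ 1`, `φ(1) ≡ -1` mod `|A|`.

* `exists_blk` : the character data `D` and the fourth nonexceptional character `ψ`.
* `prd_of_blk` : `x`, `y ∈ A#`, `x` not conjugate to `y⁻¹`, `g` not conjugate into `A#`, `st g = 0` and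
  `|C(g)| (1 / φ(1)² + 1 / ψ(1)² + 16 / (s d²)) < 1` imply `g ∈ x^G y^G`.
-/

set_option autoImplicit false
set_option linter.unusedSectionVars false

open Cfsg

namespace Cfsg.Agent.H458.TW.Td

open Cfsg.Agent.Characters Cfsg.Agent.Characters.CCBasic Cfsg.Agent.Characters.CCEstimates
  Cfsg.Agent.Characters.CCValues Cfsg.Agent.H678.CCExact Cfsg.Agent.H65.Ore
open scoped ComplexConjugate

universe u

variable {G : Type u} [Group G] [Fintype G] [Fintype (IrrCharacter G)]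

/-- the nonexceptional characters `1, st, φ, ψ` of a CC-subgroup `A` with `|N(A) : A| = 4` -/
structure Blk {A : Subgroup G} {s : ℕ} (D : CCData A s 4) (st φ ψ : IrrCharacter G) : Prop where
  c0 : D.c = 0
  f1 : D.f (one1 G) = 1
  f2 : D.f st = 1
  f3 : D.f φ = -1
  f4 : D.f ψ = 1 ∨ D.f ψ = -1
  n12 : one1 G ≠ st
  n13 : one1 G ≠ φ
  n14 : one1 G ≠ ψ
  n23 : st ≠ φ
  n24 : st ≠ ψ
  n34 : φ ≠ ψ
  hz : ∀ χ : IrrCharacter G, χ ≠ one1 G → χ ≠ st → χ ≠ φ → χ ≠ ψ → D.f χ = 0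
  ddvd : (Nat.card A : ℤ) ∣ D.d - 4 * D.ε
  dvd4 : (Nat.card A : ℤ) ∣ charDegree (ψ : G → ℂ) - D.f ψ
  rel : (1 : ℤ) + charDegree (st : G → ℂ) - charDegree (φ : G → ℂ) + D.f ψ * charDegree (ψ : G → ℂ) = D.ε * D.d

theorem deg_one1 : charDegree ((one1 G : IrrCharacter G) : G → ℂ) = 1 := by
  have h := H686.CharKit.charDegree_irr (one1 G)
  rw [one1_apply] at h
  exact_mod_cast h

/-- **The character data.** -/
theorem exists_blk {A : Subgroup G} (hA : IsCC A) (h4 : len A = 4) {s : ℕ} (h3 : 7 ≤ s)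
    (hs : s * 4 + 1 = Nat.card A) {st φ : IrrCharacter G}
    (m2 : (Nat.card A : ℤ) ∣ charDegree (st : G → ℂ) - 1) (m3 : (Nat.card A : ℤ) ∣ charDegree (φ : G → ℂ) + 1)
    (h12 : charDegree (st : G → ℂ) ≠ 1) :
    ∃ (D : CCData A s 4) (ψ : IrrCharacter G), Blk D st φ ψ := by
  classical
  obtain ⟨D⟩ := nonempty_ccData hA h4 hs (by omega)
  have hP : (Nat.card A : ℤ) = s * 4 + 1 := by exact_mod_cast hs.symm
  have hs' : (7 : ℤ) ≤ s := by exact_mod_cast h3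
  have hε := D.hε
  have hsq := D.sq
  have hsd := D.sd
  have hddvd := D.ddvd
  have hnn : 0 ≤ ∑ ψ : IrrCharacter G, D.f ψ ^ 2 := Finset.sum_nonneg fun _ _ => sq_nonneg _
  push_cast at hsq hddvd
  have hc0 : D.c = 0 := by
    have h1 : (s : ℤ) * D.c ^ 2 ≤ 4 + 2 * D.ε * D.c := by linarith
    have h2 : 7 * D.c ^ 2 ≤ (s : ℤ) * D.c ^ 2 := by nlinarith [sq_nonneg D.c]
    have h5 : D.c < 1 ∧ -1 < D.c := by
      rcases hε with h | h <;> rw [h] at h1 <;> constructor <;> nlinarith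
    omega
  rw [hc0] at hsq hsd hddvd
  simp only [mul_zero, add_zero, ne_eq, OfNat.ofNat_ne_zero, not_false_eq_true, zero_pow] at hsq hsd hddvd
  have hnR : ∀ χ : IrrCharacter G, ∀ e : ℤ, (e = 1 ∨ e = -1) →
      (Nat.card A : ℤ) ∣ charDegree (χ : G → ℂ) - e → χ ∉ D.R := by
    intro χ e he hdv hR
    rw [D.deg χ hR] at hdv
    have h1 := dvd_sub hdv hddvd
    rw [show (D.d : ℤ) - e - ((D.d : ℤ) - D.ε * 4) = D.ε * 4 - e by ring] at h1
    have h2 : |D.ε * 4 - e| < Nat.card A := by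
      rw [hP, abs_lt]
      rcases hε with h | h <;> rcases he with h'' | h'' <;> rw [h, h''] <;> constructor <;> linarith
    have h5 := Int.eq_zero_of_abs_lt_dvd h1 h2
    rcases hε with h | h <;> rcases he with h'' | h'' <;> rw [h, h''] at h5 <;> norm_num at h5
  have hbig : ∀ χ : IrrCharacter G, D.f χ ^ 2 ≤ 4 := by
    intro χ
    have h1 : D.f χ ^ 2 ≤ ∑ ψ : IrrCharacter G, D.f ψ ^ 2 :=
      Finset.single_le_sum (f := fun ψ : IrrCharacter G => D.f ψ ^ 2) (fun _ _ => sq_nonneg _) (Finset.mem_univ χ)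
    linarith
  have hval : ∀ χ : IrrCharacter G, ∀ e : ℤ, (e = 1 ∨ e = -1) →
      (Nat.card A : ℤ) ∣ charDegree (χ : G → ℂ) - e → D.f χ = e := by
    intro χ e he hdv
    have h1 := dvd_sub hdv (D.dvd χ (hnR χ e he hdv))
    rw [sub_sub_sub_cancel_left] at h1
    have h2 := hbig χ
    have h5 : D.f χ ≤ 2 ∧ -2 ≤ D.f χ := by constructor <;> nlinarith
    have h6 : |D.f χ - e| < Nat.card A := by
      rw [hP, abs_lt]
      rcases he with h'' | h'' <;> rw [h''] <;> constructor <;> linarith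
    have h7 := Int.eq_zero_of_abs_lt_dvd h1 h6
    linarith
  have hf1 : D.f (one1 G) = 1 := hval _ 1 (Or.inl rfl) (by rw [deg_one1]; simp)
  have hf2 : D.f st = 1 := hval _ 1 (Or.inl rfl) m2
  have hf3 : D.f φ = -1 := hval _ (-1) (Or.inr rfl) (by rw [sub_neg_eq_add]; exact m3)
  have n12 : one1 G ≠ st := by
    rintro rfl
    exact h12 deg_one1
  have n13 : one1 G ≠ φ := by
    intro h
    rw [← h, hf1] at hf3
    norm_num at hf3
  have n23 : st ≠ φ := by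
    intro h
    rw [← h, hf2] at hf3
    norm_num at hf3
  let B : Finset (IrrCharacter G) := {one1 G, st, φ}
  have hB : ∀ g : IrrCharacter G → ℤ, ∑ ψ : IrrCharacter G, g ψ = g (one1 G) + g st + g φ + ∑ ψ ∈ Bᶜ, g ψ := by
    intro g
    rw [← Finset.sum_add_sum_compl B g, Finset.sum_insert (by simp [n12, n13]), Finset.sum_pair n23]
    ring
  rw [hB, hf1, hf2, hf3] at hsq
  rw [hB (fun ψ => (charDegree (ψ : G → ℂ) : ℤ) * D.f ψ), hf1, hf2, hf3, deg_one1] at hsd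
  have hsum : ∑ ψ ∈ Bᶜ, D.f ψ ^ 2 = 1 := by linarith
  obtain ⟨ψ, hψB, hψ⟩ : ∃ ψ ∈ Bᶜ, D.f ψ ≠ 0 := by
    by_contra hcon
    push Not at hcon
    rw [Finset.sum_eq_zero fun ψ hψ => by rw [hcon ψ hψ]; ring] at hsum
    norm_num at hsum
  have hge : 1 ≤ D.f ψ ^ 2 := by
    have : 0 < D.f ψ ^ 2 := by positivity
    omega
  rw [← Finset.add_sum_erase _ _ hψB] at hsum
  have hnn3 : 0 ≤ ∑ ψ ∈ Bᶜ.erase ψ, D.f ψ ^ 2 := Finset.sum_nonneg fun _ _ => sq_nonneg _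
  have hz0 : ∑ ψ ∈ Bᶜ.erase ψ, D.f ψ ^ 2 = 0 := by linarith
  have hz : ∀ χ ∈ Bᶜ.erase ψ, D.f χ = 0 := by
    rw [Finset.sum_eq_zero_iff_of_nonneg (fun _ _ => sq_nonneg _)] at hz0
    intro χ hχ
    exact (pow_eq_zero_iff (two_ne_zero)).1 (hz0 χ hχ)
  have hf4 : D.f ψ ^ 2 = 1 := by linarith
  rw [← Finset.add_sum_erase _ _ hψB, Finset.sum_eq_zero fun χ hχ => by rw [hz χ hχ, mul_zero]] at hsd
  have hψR : ψ ∉ D.R := fun h => hψ (D.hf0 ψ h)
  have hψn : ψ ≠ one1 G ∧ ψ ≠ st ∧ ψ ≠ φ := by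
    have h1 : ψ ∉ B := Finset.mem_compl.1 hψB
    simpa [B] using h1
  refine ⟨D, ψ, hc0, hf1, hf2, hf3, mul_self_eq_one_iff.1 (by rw [← sq]; exact hf4), n12, n13, hψn.1.symm, n23,
    hψn.2.1.symm, hψn.2.2.symm, fun χ a1 a2 a3 a4 => hz χ ?_, ?_, D.dvd ψ hψR, ?_⟩
  · rw [Finset.mem_erase, Finset.mem_compl]
    refine ⟨a4, ?_⟩
    simp only [B, Finset.mem_insert, Finset.mem_singleton, not_or]
    exact ⟨a1, a2, a3⟩
  · rw [mul_comm 4]
    exact hddvd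
  · push_cast at hsd
    linarith

/-- **The class sum.** -/
theorem prd_of_blk {A : Subgroup G} {s : ℕ} {D : CCData A s 4} {st φ ψ : IrrCharacter G} (B : Blk D st φ ψ)
    (hs : 0 < s) {x y g : G} (hx : x ∈ A) (hx1 : x ≠ 1) (hy : y ∈ A) (hy1 : y ≠ 1) (hxy : ¬ IsConj x y⁻¹)
    (hg : ¬ Cfsg.Agent.Characters.CCCounting.InConj A g) (hst : (st : G → ℂ) g = 0)
    (hlt : (Nat.card (Subgroup.centralizer ({g} : Set G)) : ℝ) * (1 / (charDegree (φ : G → ℂ) : ℝ) ^ 2 +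
      1 / (charDegree (ψ : G → ℂ) : ℝ) ^ 2 + 16 / (s * (D.d : ℝ) ^ 2)) < 1) : Prd x y g := by
  classical
  have hdegC : ∀ χ : IrrCharacter G, (χ : G → ℂ) 1 = (charDegree (χ : G → ℂ) : ℂ) := fun χ =>
    (H686.CharKit.charDegree_irr χ).symm
  have hRne : D.R.Nonempty := by
    rw [← Finset.card_pos, D.hcard]
    exact hs
  obtain ⟨ρ, hρ⟩ := hRne
  have hnr : ∀ χ : IrrCharacter G, D.f χ ≠ 0 → χ ∉ D.R := fun χ h h' => h (D.hf0 χ h')
  have h1R : one1 G ∉ D.R := hnr _ (by rw [B.f1]; norm_num)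
  have h2R : st ∉ D.R := hnr _ (by rw [B.f2]; norm_num)
  have h3R : φ ∉ D.R := hnr _ (by rw [B.f3]; norm_num)
  have h4R : ψ ∉ D.R := hnr _ (by rcases B.f4 with h | h <;> rw [h] <;> norm_num)
  have hsub : ({one1 G, st, φ, ψ} : Finset (IrrCharacter G)) ⊆ D.Rᶜ := by
    intro χ hχ
    rw [Finset.mem_compl]
    simp only [Finset.mem_insert, Finset.mem_singleton] at hχ
    rcases hχ with rfl | rfl | rfl | rfl
    · exact h1R
    · exact h2R
    · exact h3R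
    · exact h4R
  have n1 : one1 G ∉ ({st, φ, ψ} : Finset (IrrCharacter G)) := by simp [B.n12, B.n13, B.n14]
  have n2 : st ∉ ({φ, ψ} : Finset (IrrCharacter G)) := by simp [B.n23, B.n24]
  -- the values on `A#`
  have hval : ∀ χ : IrrCharacter G, χ ∉ D.R → (χ : G → ℂ) x * (χ : G → ℂ) y = ((D.f χ ^ 2 : ℤ) : ℂ) := by
    intro χ hχ
    rw [D.hf χ hχ x hx hx1, D.hf χ hχ y hy hy1]
    push_cast
    ring
  have hzero : ∀ χ ∈ D.Rᶜ, χ ∉ ({one1 G, st, φ, ψ} : Finset (IrrCharacter G)) → (χ : G → ℂ) x * (χ : G → ℂ) y = 0 := by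
    intro χ hχ hχB
    simp only [Finset.mem_insert, Finset.mem_singleton, not_or] at hχB
    rw [hval χ (Finset.mem_compl.1 hχ), B.hz χ hχB.1 hχB.2.1 hχB.2.2.1 hχB.2.2.2]
    norm_num
  have hsqs : ∀ χ ∈ ({one1 G, st, φ, ψ} : Finset (IrrCharacter G)), (χ : G → ℂ) x * (χ : G → ℂ) y = 1 := by
    intro χ hχ
    rw [hval χ (Finset.mem_compl.1 (hsub hχ))]
    simp only [Finset.mem_insert, Finset.mem_singleton] at hχ
    rcases hχ with rfl | rfl | rfl | rfl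
    · rw [B.f1]; norm_num
    · rw [B.f2]; norm_num
    · rw [B.f3]; norm_num
    · rcases B.f4 with h | h <;> rw [h] <;> norm_num
  have hC : ∀ v : IrrCharacter G → ℂ, ∑ χ ∈ D.Rᶜ, (χ : G → ℂ) x * (χ : G → ℂ) y * v χ =
      v (one1 G) + v st + v φ + v ψ := by
    intro v
    rw [← Finset.sum_subset hsub (f := fun χ : IrrCharacter G => (χ : G → ℂ) x * (χ : G → ℂ) y * v χ)
      (fun χ hχ hχB => by rw [hzero χ hχ hχB, zero_mul]), Finset.sum_congr rfl fun χ hχ => by rw [hsqs χ hχ, one_mul],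
      Finset.sum_insert n1, Finset.sum_insert n2, Finset.sum_pair B.n34]
    ring
  -- the exceptional characters
  have hR : ∑ χ ∈ D.R, (χ : G → ℂ) x * (χ : G → ℂ) y = -4 := by
    have h1 := H686.CharKit.col_orth x y⁻¹
    rw [if_neg hxy] at h1
    have h2 : ∀ χ : IrrCharacter G, (χ : G → ℂ) x * conj ((χ : G → ℂ) y⁻¹) = (χ : G → ℂ) x * (χ : G → ℂ) y := by
      intro χ
      have h3 := Core.isCharacter_apply_inv (Core.isIrr_isCharacter χ.2) y
      rw [h3, Complex.conj_conj]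
    rw [Finset.sum_congr rfl fun χ _ => h2 χ, ← Finset.sum_add_sum_compl D.R] at h1
    have h4 := hC (fun _ => 1)
    simp only [mul_one] at h4
    rw [h4] at h1
    linear_combination h1
  -- the sum
  have hsum : ∑ χ : IrrCharacter G, (χ : G → ℂ) x * (χ : G → ℂ) y * conj ((χ : G → ℂ) g) / (χ : G → ℂ) 1 =
      1 + conj ((φ : G → ℂ) g) / (charDegree (φ : G → ℂ) : ℂ) + conj ((ψ : G → ℂ) g) / (charDegree (ψ : G → ℂ) : ℂ) -
        4 * (conj ((ρ : G → ℂ) g) / (D.d : ℂ)) := by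
    rw [← Finset.sum_add_sum_compl D.R]
    have h1 : ∑ χ ∈ D.R, (χ : G → ℂ) x * (χ : G → ℂ) y * conj ((χ : G → ℂ) g) / (χ : G → ℂ) 1 =
        -4 * (conj ((ρ : G → ℂ) g) / (D.d : ℂ)) := by
      rw [← hR, Finset.sum_mul]
      refine Finset.sum_congr rfl fun χ hχ => ?_
      rw [D.agree χ hχ ρ hρ g hg, hdegC, D.deg χ hχ]
      ring
    have h2 : ∑ χ ∈ D.Rᶜ, (χ : G → ℂ) x * (χ : G → ℂ) y * conj ((χ : G → ℂ) g) / (χ : G → ℂ) 1 =
        1 + conj ((φ : G → ℂ) g) / (charDegree (φ : G → ℂ) : ℂ) +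
          conj ((ψ : G → ℂ) g) / (charDegree (ψ : G → ℂ) : ℂ) := by
      have h3 := hC (fun χ => conj ((χ : G → ℂ) g) / (χ : G → ℂ) 1)
      simp only [one1_apply, hst, map_one, map_zero, zero_div, div_one, add_zero] at h3
      rw [hdegC, hdegC] at h3
      rw [← h3]
      exact Finset.sum_congr rfl fun χ _ => by rw [mul_div_assoc]
    rw [h1, h2]
    ring
  apply prd_of_ne_zero
  rw [hsum]
  intro h0
  -- Cauchy-Schwarz
  have hsR : (0 : ℝ) < s := by exact_mod_cast hs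
  set a : ℝ := (charDegree (φ : G → ℂ) : ℝ) with ha
  set b : ℝ := (charDegree (ψ : G → ℂ) : ℝ) with hb
  set d : ℝ := (D.d : ℝ) with hd
  have ha0 : 0 < a := Nat.cast_pos.2 (H686.CharKit.charDegree_pos φ)
  have hb0 : 0 < b := Nat.cast_pos.2 (H686.CharKit.charDegree_pos ψ)
  have hd0 : 0 < d := by
    have h1 := H686.CharKit.charDegree_pos ρ
    rw [D.deg ρ hρ] at h1
    exact Nat.cast_pos.2 h1
  set A' : ℝ := ‖(φ : G → ℂ) g‖ with hA'
  set B' : ℝ := ‖(ψ : G → ℂ) g‖ with hB'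
  set E' : ℝ := ‖(ρ : G → ℂ) g‖ with hE'
  have h1 : (1 : ℝ) ≤ A' / a + B' / b + 4 * (E' / d) := by
    have h2 : (1 : ℂ) = 4 * (conj ((ρ : G → ℂ) g) / (D.d : ℂ)) - conj ((φ : G → ℂ) g) / (charDegree (φ : G → ℂ) : ℂ) -
        conj ((ψ : G → ℂ) g) / (charDegree (ψ : G → ℂ) : ℂ) := by linear_combination h0
    have h3 := congrArg (fun z : ℂ => ‖z‖) h2
    simp only [norm_one] at h3
    have h4 := norm_sub_le (4 * (conj ((ρ : G → ℂ) g) / (D.d : ℂ)) - conj ((φ : G → ℂ) g) / (charDegree (φ : G → ℂ) : ℂ))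
      (conj ((ψ : G → ℂ) g) / (charDegree (ψ : G → ℂ) : ℂ))
    have h5 := norm_sub_le (4 * (conj ((ρ : G → ℂ) g) / (D.d : ℂ))) (conj ((φ : G → ℂ) g) / (charDegree (φ : G → ℂ) : ℂ))
    rw [← h3] at h4
    rw [norm_mul, norm_div, norm_div, Complex.norm_conj, Complex.norm_conj, Complex.norm_natCast, Complex.norm_natCast] at h5
    rw [norm_div, Complex.norm_conj, Complex.norm_natCast] at h4
    have h6 : ‖(4 : ℂ)‖ = 4 := by norm_num
    rw [h6] at h5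
    linarith
  have h2 : A' ^ 2 + B' ^ 2 + s * E' ^ 2 ≤ (Nat.card (Subgroup.centralizer ({g} : Set G)) : ℝ) := by
    have h3 := H686.CharKit.sum_normSq g
    simp only [Complex.normSq_eq_norm_sq] at h3
    rw [← h3, ← Finset.sum_add_sum_compl D.R]
    have h4 : ∑ χ ∈ D.R, ‖(χ : G → ℂ) g‖ ^ 2 = s * E' ^ 2 := by
      rw [Finset.sum_congr rfl fun χ hχ => by rw [D.agree χ hχ ρ hρ g hg], Finset.sum_const, D.hcard, nsmul_eq_mul]
    have h5 : A' ^ 2 + B' ^ 2 ≤ ∑ χ ∈ D.Rᶜ, ‖(χ : G → ℂ) g‖ ^ 2 := by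
      have h6 : ({φ, ψ} : Finset (IrrCharacter G)) ⊆ D.Rᶜ := by
        intro χ hχ
        apply hsub
        simp only [Finset.mem_insert, Finset.mem_singleton] at hχ ⊢
        tauto
      have h7 := Finset.sum_le_sum_of_subset_of_nonneg h6 (f := fun χ : IrrCharacter G => ‖(χ : G → ℂ) g‖ ^ 2)
        (fun χ _ _ => by positivity)
      rwa [Finset.sum_pair B.n34] at h7
    rw [h4]
    linarith
  have h3 : (A' / a + B' / b + 4 * (E' / d)) ^ 2 ≤
      (A' ^ 2 + B' ^ 2 + s * E' ^ 2) * (1 / a ^ 2 + 1 / b ^ 2 + 16 / (s * d ^ 2)) := by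
    have h4 := Finset.sum_mul_sq_le_sq_mul_sq (Finset.univ : Finset (Fin 3)) ![A', B', Real.sqrt s * E']
      ![1 / a, 1 / b, 4 / (Real.sqrt s * d)]
    simp only [Fin.sum_univ_three, Matrix.cons_val_zero, Matrix.cons_val_one, Matrix.cons_val_two, Matrix.head_cons,
      Matrix.tail_cons] at h4
    have hsq : Real.sqrt s ≠ 0 := (Real.sqrt_pos.2 hsR).ne'
    have e1 : A' * (1 / a) + B' * (1 / b) + Real.sqrt s * E' * (4 / (Real.sqrt s * d)) = A' / a + B' / b + 4 * (E' / d) := by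
      field_simp
    have e2 : (Real.sqrt s * E') ^ 2 = s * E' ^ 2 := by rw [mul_pow, Real.sq_sqrt hsR.le]
    have e3 : (4 / (Real.sqrt s * d)) ^ 2 = 16 / (s * d ^ 2) := by
      rw [div_pow, mul_pow, Real.sq_sqrt hsR.le]; norm_num
    rw [e1, e2, e3, one_div_pow, one_div_pow] at h4
    exact h4
  have h4 : (1 : ℝ) ≤ (A' / a + B' / b + 4 * (E' / d)) ^ 2 := one_le_pow₀ h1
  have h5 : 0 ≤ 1 / a ^ 2 + 1 / b ^ 2 + 16 / (s * d ^ 2) := by positivity
  have h6 := mul_le_mul_of_nonneg_right h2 h5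
  linarith

end Cfsg.Agent.H458.TW.Td
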