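import Cfsg.Agent.H458.TW.TdRowOf
import Cfsg.Agent.H830.TD.Cent
import Cfsg.Agent.H830.TD.Pair
import Cfsg.Agent.H568.TD.Deg
import Cfsg.Agent.H588.TW.Defs

/-!
# `³D₄(q)`, `q ≥ 4`: the row of S2452 (helper458, with helper830 and helper568)

`x`, `y` nonconjugate elements of the same prime order `r | q⁴ - q² + 1`.
-/

set_option autoImplicit false

open Cfsg Cfsg.Lie

namespace Cfsg.Agent.H458.TW.Td

open Cfsg.Agent.H210.TC (Row3)
open Cfsg.Agent.H588.TW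

theorem degU {q : ℕ} (hq : IsPrimePow q) (h4 : 4 ≤ q) : DegU q := by
  intro P b d e3 f ε hP h3 hf hε hb hd hd1 hb1 h
  obtain ⟨-, -, h1, h2⟩ := Cfsg.Agent.H568.TD.deg_unique hq h4 hP h3 hε hf hd hb hd1 hb1 h
  exact ⟨h1, h2⟩

/-- **The row `³D₄(q)`, `q ≥ 4`.** -/
theorem row3_td4 {K : Type} [Field K] [Fintype K] {q : ℕ} (hq : IsPrimePow q) (hK : Fintype.card K = q ^ 3)
    (h4 : 4 ≤ q) : Row3 ↥(twistedD4 K q) := by
  obtain ⟨p, hch⟩ := CharP.exists K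
  have hpf : Fact p.Prime := ⟨CharP.char_is_prime K p⟩
  obtain ⟨A, x, y, hA, hcc, hlen, hxA, hyA, hxp, hx7, hyo, hxy⟩ := Cfsg.Agent.H830.TD.exists_pair hq hK h4
  exact row3_of (p := p) hq hK h4 (degU hq h4) (fun g hg => Cfsg.Agent.H830.TD.cent_alt17 hq hK h4 g hg)
    hA hcc hlen hxA hyA hxp hx7 hyo hxy

/-- the row in the form of S2452 -/
theorem t52_td4 {K : Type} [Field K] [Fintype K] {q : ℕ} (hq : IsPrimePow q) (hK : Fintype.card K = q ^ 3)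
    (h4 : 4 ≤ q) : T52 ↥(twistedD4 K q) :=
  T52.of_row3 (row3_td4 hq hK h4)

end Cfsg.Agent.H458.TW.Td
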