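import Cfsg.Agent.H458.TW.TdData
import Cfsg.Agent.H458.TW.TdNum
import Cfsg.Agent.H83.Eight.TwD4
import Cfsg.Agent.H869.TD.Idx
import Cfsg.Agent.H727.TC.Row3
import Cfsg.Agent.H727.TC.Long

/-!
# `³D₄(q)`, `q ≥ 4`: two classes of elements of the same prime order (S2452; helper458)
-/

set_option autoImplicit false
set_option linter.unusedSectionVars false

open Cfsg Cfsg.Lie Subgroup

namespace Cfsg.Agent.H458.TW.Td

open Cfsg.Agent.Characters Cfsg.Agent.Characters.CCBasic Cfsg.Agent.Characters.CCEstimates Cfsg.Agent.H65.Ore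
open Cfsg.Agent.H210.TC (Row3)

/-- the degrees -/
def DegU (q : ℕ) : Prop := ∀ {P b d e3 : ℕ} {f ε : ℤ}, P + q ^ 2 = q ^ 4 + 1 → 2 * e3 = q ^ 3 * (q ^ 3 + 1) ^ 2 →
  (f = 1 ∨ f = -1) → (ε = 1 ∨ ε = -1) → b ∣ q ^ 12 * (q ^ 6 - 1) ^ 2 * P → d ∣ q ^ 12 * (q ^ 6 - 1) ^ 2 * P →
  (P : ℤ) ∣ d - 4 * ε → (P : ℤ) ∣ b - f → (1 : ℤ) + (q ^ 12 : ℕ) - e3 + f * b = ε * d →
  2 * b = q ^ 3 * (q ^ 3 - 1) ^ 2 ∧ d = (q ^ 6 - 1) ^ 2

/-- **The row `³D₄(q)`, `q ≥ 4`**, from the degrees, the centralizers and the pair. -/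
theorem row3_of {K : Type} [Field K] [Fintype K] {q p : ℕ} [hp : Fact p.Prime] [CharP K p] (hq : IsPrimePow q)
    (hK : Fintype.card K = q ^ 3) (h4 : 4 ≤ q) (hdeg : DegU q)
    (hcent : ∀ g : ↥(twistedD4 K q), p ∣ orderOf g → 17 * Nat.card (Subgroup.centralizer {g}) < 2 * q ^ 18 ∨
      ¬ p ∣ (Subgroup.centralizer {g}).index)
    {A : Subgroup ↥(twistedD4 K q)} {x y : ↥(twistedD4 K q)} (hA : Nat.card ↥A = q ^ 4 - q ^ 2 + 1) (hcc : IsCC A)
    (hlen : len A = 4) (hxA : x ∈ A) (hyA : y ∈ A) (hxp : (orderOf x).Prime) (hx7 : 7 ≤ orderOf x)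
    (hyo : orderOf y = orderOf x) (hxy : ¬ IsConj x y⁻¹) : Row3 ↥(twistedD4 K q) := by
  classical
  have hfin := H869.TD.finite_g hq hK
  have := Fintype.ofFinite ↥(twistedD4 K q)
  have : Finite (IrrCharacter ↥(twistedD4 K q)) := Core.finite_irr
  have := Fintype.ofFinite (IrrCharacter ↥(twistedD4 K q))
  have hL : IsLieTypeChar p ↥(twistedD4 K q) := H869.TD.isLie hq hK
  obtain ⟨P, hPe⟩ : ∃ P, P = q ^ 4 - q ^ 2 + 1 := ⟨_, rfl⟩
  have hP : P + q ^ 2 = q ^ 4 + 1 := by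
    have : q ^ 2 ≤ q ^ 4 := Nat.pow_le_pow_right hq.pos (by norm_num)
    omega
  rw [← hPe] at hA
  -- `q` is a power of `p`
  obtain ⟨f, hf⟩ : ∃ f, q = p ^ f := by
    obtain ⟨n, hn, hn'⟩ := FiniteField.card K p
    have h1 : q ∣ p ^ (n : ℕ) := by
      rw [← hn', hK]
      exact dvd_pow_self _ (by norm_num)
    obtain ⟨f, -, hf⟩ := (Nat.dvd_prime_pow hp.out).1 h1
    exact ⟨f, hf⟩
  have hpq : p ∣ q := by
    rw [hf]
    refine dvd_pow_self p ?_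
    rintro rfl
    rw [pow_zero] at hf
    omega
  have hpP : ¬ p ∣ P := by
    intro h
    have h1 : p ∣ q ^ 4 + 1 := by
      rw [← hP]
      exact dvd_add h (hpq.trans (dvd_pow_self _ (by norm_num)))
    have h2 : p ∣ q ^ 4 := hpq.trans (dvd_pow_self _ (by norm_num))
    exact hp.out.one_lt.ne' (Nat.dvd_one.1 ((Nat.dvd_add_right h2).1 h1))
  have hx1 : x ≠ 1 := by
    rintro rfl
    rw [orderOf_one] at hx7
    omega
  have hy1 : y ≠ 1 := by
    rintro rfl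
    rw [orderOf_one] at hyo
    omega
  have hpx : ¬ p ∣ Nat.card (centralizer ({x} : Set ↥(twistedD4 K q))) := by rw [hcc.cent x hxA hx1, hA]; exact hpP
  have hpy : ¬ p ∣ Nat.card (centralizer ({y} : Set ↥(twistedD4 K q))) := by rw [hcc.cent y hyA hy1, hA]; exact hpP
  have hpo : ∀ z ∈ A, ¬ p ∣ orderOf z := fun z hz h => hpP (by
    rw [← hA]
    exact h.trans (Subgroup.orderOf_dvd_natCard A hz))
  -- the size
  obtain ⟨s, hs⟩ : ∃ s, s * 4 + 1 = P := by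
    have h1 : (P : ℕ) % 4 = 1 := by
      have h2 := congrArg (· % 4) hP
      have h3 : q % 4 = 0 ∨ q % 4 = 1 ∨ q % 4 = 2 ∨ q % 4 = 3 := by omega
      rcases h3 with h3 | h3 | h3 | h3 <;> simp [Nat.add_mod, Nat.pow_mod, h3] at h2 <;> omega
    exact ⟨P / 4, by omega⟩
  have hs60 : 60 ≤ s := by
    obtain ⟨k, hk⟩ := Nat.exists_eq_add_of_le h4
    have h5 : 16 ≤ q ^ 2 := by nlinarith
    have h6 : q ^ 4 = q ^ 2 * q ^ 2 := by ring
    have h7 : 16 * q ^ 2 ≤ q ^ 2 * q ^ 2 := Nat.mul_le_mul_right _ h5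
    omega
  -- the characters
  obtain ⟨st, hst, -, hst0, -, -⟩ := H727.TC.exists_st hp.out hL
  have hstd : charDegree (st : ↥(twistedD4 K q) → ℂ) = q ^ 12 := by
    rw [hst, H869.TD.factorization hq hK hf, hf, ← pow_mul, mul_comm]
  obtain ⟨e3, he3⟩ : ∃ e, 2 * e = q ^ 3 * (q ^ 3 + 1) ^ 2 := by
    rcases Nat.even_or_odd q with ⟨m, hm⟩ | ⟨m, hm⟩
    · exact ⟨m * q ^ 2 * (q ^ 3 + 1) ^ 2, by
        have : q ^ 3 = 2 * (m * q ^ 2) := by
          calc q ^ 3 = q * q ^ 2 := by ring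
            _ = (m + m) * q ^ 2 := by rw [← hm]
            _ = _ := by ring
        calc 2 * (m * q ^ 2 * (q ^ 3 + 1) ^ 2) = (2 * (m * q ^ 2)) * (q ^ 3 + 1) ^ 2 := by ring
          _ = _ := by rw [← this]⟩
    · obtain ⟨n, hn⟩ : Odd (q ^ 3) := (show Odd q from ⟨m, hm⟩).pow
      exact ⟨q ^ 3 * (n + 1) * (q ^ 3 + 1), by
        have : q ^ 3 + 1 = 2 * (n + 1) := by omega
        calc 2 * (q ^ 3 * (n + 1) * (q ^ 3 + 1)) = q ^ 3 * (2 * (n + 1)) * (q ^ 3 + 1) := by ring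
          _ = q ^ 3 * (q ^ 3 + 1) * (q ^ 3 + 1) := by rw [← this]
          _ = _ := by ring⟩
  obtain ⟨d2, hd2⟩ : ∃ d, 2 * d = q ^ 3 * (q + 1) ^ 2 * P := by
    rcases Nat.even_or_odd q with ⟨m, hm⟩ | ⟨m, hm⟩
    · exact ⟨m * q ^ 2 * (q + 1) ^ 2 * P, by
        have : q ^ 3 = 2 * (m * q ^ 2) := by
          calc q ^ 3 = q * q ^ 2 := by ring
            _ = (m + m) * q ^ 2 := by rw [← hm]
            _ = _ := by ring
        calc 2 * (m * q ^ 2 * (q + 1) ^ 2 * P) = (2 * (m * q ^ 2)) * (q + 1) ^ 2 * P := by ring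
          _ = _ := by rw [← this]⟩
    · exact ⟨q ^ 3 * (m + 1) * (q + 1) * P, by
        have : q + 1 = 2 * (m + 1) := by omega
        calc 2 * (q ^ 3 * (m + 1) * (q + 1) * P) = q ^ 3 * (2 * (m + 1)) * (q + 1) * P := by ring
          _ = q ^ 3 * (q + 1) * (q + 1) * P := by rw [← this]
          _ = _ := by ring⟩
  obtain ⟨-, -, ⟨φ, hφ⟩, -⟩ := H83.Eight.TwD4.unip hq hK hP hd2 he3
  obtain ⟨D, ψ, B⟩ := exists_blk hcc hlen (s := s) (by omega) (by rw [hs, hA]) (st := st) (φ := φ)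
    (by rw [hA, hstd]; exact cong_st hP) (by rw [hA, hφ]; exact cong_phi hP he3) (by
      rw [hstd]
      exact (Nat.one_lt_pow (by norm_num) (by omega)).ne')
  have hcG : Nat.card ↥(twistedD4 K q) = q ^ 12 * (q ^ 6 - 1) ^ 2 * P := by
    rw [H869.TD.card_g hq hK, ord_eq (by omega) hP]
  have hRne : D.R.Nonempty := by
    rw [← Finset.card_pos, D.hcard]
    omega
  obtain ⟨ρ, hρ⟩ := hRne
  obtain ⟨hb, hd⟩ := hdeg hP he3 B.f4 D.hε (b := charDegree (ψ : ↥(twistedD4 K q) → ℂ)) (d := D.d)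
    (by rw [← hcG]; exact Cfsg.Agent.Blocks.Knorr.charDegree_dvd ψ.2)
    (by rw [← hcG, ← D.deg ρ hρ]; exact Cfsg.Agent.Blocks.Knorr.charDegree_dvd ρ.2)
    (by have := B.ddvd; rwa [hA] at this) (by have := B.dvd4; rwa [hA] at this)
    (by have := B.rel; rwa [hstd, hφ] at this)
  -- the products
  have key : ∀ g : ↥(twistedD4 K q), g ≠ 1 → ∃ u v : ↥(twistedD4 K q), g = (u * x * u⁻¹) * (v * y * v⁻¹) := by
    intro g hg
    by_cases hpg : p ∣ orderOf g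
    swap
    · obtain ⟨u, v, h1⟩ := H330.Gow.gow hp.out hL hpx hpy hg hpg
      exact ⟨u, v, h1.symm⟩
    rcases hcent g hpg with h1 | h1
    swap
    · exact H727.TC.prd_of_coprime_class hp.out hL hpx hpy hxy hg h1
    · refine prd_of_blk B (by omega) hxA hx1 hyA hy1 hxy ?_ (hst0 g hpg) ?_
      · rintro ⟨z, hz, hz1, hzg⟩
        obtain ⟨w, rfl⟩ := isConj_iff.1 hzg
        have h2 : orderOf (w * z * w⁻¹) = orderOf z := by
          rw [← MulAut.conj_apply]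
          exact MulEquiv.orderOf_eq (MulAut.conj w) z
        rw [h2] at hpg
        exact hpo z hz hpg
      · refine num_lt (t := (q : ℝ) ^ 3) ?_ ?_ ?_ ?_ (by exact_mod_cast hs60) (Nat.cast_nonneg _) ?_
        · have : (64 : ℕ) ≤ q ^ 3 := by
            calc 64 = 4 ^ 3 := by norm_num
              _ ≤ q ^ 3 := Nat.pow_le_pow_left h4 3
          exact_mod_cast this
        · rw [hφ]
          exact_mod_cast he3
        · have h2 : 1 ≤ q ^ 3 := Nat.one_le_pow _ _ hq.pos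
          have h3 : ((q ^ 3 - 1 : ℕ) : ℝ) = (q : ℝ) ^ 3 - 1 := by push_cast [h2]; ring
          rw [← h3]
          exact_mod_cast hb
        · have h2 : 1 ≤ q ^ 6 := Nat.one_le_pow _ _ hq.pos
          have h3 : ((q ^ 6 - 1 : ℕ) : ℝ) = ((q : ℝ) ^ 3) ^ 2 - 1 := by push_cast [h2]; ring
          rw [← h3]
          exact_mod_cast hd
        · have h2 : ((q : ℝ) ^ 3) ^ 6 = (q : ℝ) ^ 18 := by ring
          rw [h2]
          exact_mod_cast h1
  have hc6 : Nat.Coprime (orderOf x) 6 := by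
    rw [hxp.coprime_iff_not_dvd]
    intro h
    have := Nat.le_of_dvd (by norm_num) h
    omega
  exact ⟨x, y, hxp, hc6, by rw [hyo]; exact hxp, by rw [hyo]; exact hc6, key,
    H727.TC.cube_of_gow hp.out hL hpx hx1 (hpo y hyA) hy1 key⟩

end Cfsg.Agent.H458.TW.Td
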